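/-
A semisimple endomorphism with squarefree characteristic polynomial has no nontrivial commuting unipotent element.
-/
import Cfsg.Agent.Lib.SemiSimple.Commuting
import Mathlib

set_option autoImplicit false

namespace Cfsg.Agent.Lib.SemiSimple.Sqfree

open Polynomial Module Cfsg.Agent.Lib.SemiSimple.Basic Cfsg.Agent.Lib.SemiSimple.Commuting

universe u

variable {F : Type u} [Field F]
variable {V : Type u} [AddCommGroup V] [Module F V] [FiniteDimensional F V]

omit [FiniteDimensional F V] in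
lemma map_aeval_of_intertwine {V' : Type u} [AddCommGroup V'] [Module F V'] (T : V →ₗ[F] V) (T' : V' →ₗ[F] V')
    (Φ : V ≃ₗ[F] V') (hΦ : ∀ x, Φ (T x) = T' (Φ x)) (P : F[X]) (x : V) :
    Φ (aeval T P x) = aeval T' P (Φ x) := by
  induction P using Polynomial.induction_on generalizing x with
  | C a => simp
  | add a b ha hb => simp [ha, hb]
  | monomial n a ih =>
    have e : C a * X ^ (n + 1) = (C a * X ^ n) * X := by ring
    have h1 : aeval T (C a * X ^ n * X) x = aeval T (C a * X ^ n) (T x) := by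
      rw [map_mul, aeval_X]
      rfl
    have h2 : aeval T' (C a * X ^ n * X) (Φ x) = aeval T' (C a * X ^ n) (T' (Φ x)) := by
      rw [map_mul, aeval_X]
      rfl
    rw [e, h1, h2, ih, hΦ]

/-- A semisimple endomorphism with squarefree characteristic polynomial has a cyclic vector. -/
theorem exists_cyclic (T : V →ₗ[F] V) (hT : IsSS T) (hsq : Squarefree T.charpoly) :
    ∃ v₀ : V, ∀ x : V, ∃ P : F[X], x = aeval T P v₀ := by
  classical
  set χ := T.charpoly with hχ
  have hm : χ.Monic := LinearMap.charpoly_monic T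
  have : Module.Finite F (AdjoinRoot χ) := hm.finite_adjoinRoot
  have hSS : IsSS (rootMul χ) := by
    refine ⟨χ, hsq, ?_⟩
    ext x
    rw [aeval_rootMul_apply, AdjoinRoot.mk_self, zero_mul]
    rfl
  obtain ⟨Φ, hΦ⟩ := exists_equiv _ V (AdjoinRoot χ) T (rootMul χ) hT hSS (charpoly_rootMul hm).symm rfl
  refine ⟨Φ.symm 1, fun x => ?_⟩
  obtain ⟨P, hP⟩ := AdjoinRoot.mk_surjective (Φ x)
  refine ⟨P, ?_⟩
  apply Φ.injective
  rw [map_aeval_of_intertwine T (rootMul χ) Φ hΦ, LinearEquiv.apply_symm_apply, aeval_rootMul_apply, mul_one, hP]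

/-- A unipotent endomorphism commuting with a semisimple endomorphism with squarefree characteristic polynomial
is trivial. -/
theorem eq_one_of_squarefree (T A : V →ₗ[F] V) (hT : IsSS T) (hsq : Squarefree T.charpoly)
    (hcomm : A * T = T * A) (hnil : IsNilpotent (A - 1)) : A = 1 := by
  classical
  obtain ⟨v₀, hcyc⟩ := exists_cyclic T hT hsq
  obtain ⟨P₁, hP₁⟩ := hcyc (A v₀)
  have hAeq : A = aeval T P₁ := by
    ext x
    obtain ⟨P, rfl⟩ := hcyc x
    have h1 : A (aeval T P v₀) = aeval T P (A v₀) := by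
      have := congrArg (fun f : V →ₗ[F] V => f v₀) (commute_aeval A T hcomm P)
      exact this
    rw [h1, hP₁]
    have h2 : aeval T P (aeval T P₁ v₀) = (aeval T P * aeval T P₁) v₀ := rfl
    have h3 : aeval T P₁ (aeval T P v₀) = (aeval T P₁ * aeval T P) v₀ := rfl
    rw [h2, h3, ← map_mul, ← map_mul, mul_comm]
  obtain ⟨k, hk⟩ := hnil
  obtain ⟨s', hs', h0'⟩ := hT
  have hmons : minpoly F T ∣ s' := minpoly.dvd F _ h0'
  have hmsq : Squarefree (minpoly F T) := hs'.squarefree_of_dvd hmons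
  have hA0 : A - 1 = aeval T (P₁ - 1) := by
    rw [map_sub, map_one, ← hAeq]
  rw [hA0, ← map_pow] at hk
  have h5 : minpoly F T ∣ (P₁ - 1) ^ k := minpoly.dvd F _ hk
  have hk0 : k ≠ 0 ∨ Subsingleton V := by
    by_cases hk' : k = 0
    · subst hk'
      right
      simp only [pow_zero, map_one] at hk
      exact ⟨fun a b => by
        have h1 : a = (1 : V →ₗ[F] V) a := rfl
        have h2 : b = (1 : V →ₗ[F] V) b := rfl
        rw [h1, h2, hk]
        rfl⟩
    · exact Or.inl hk'
  rcases hk0 with hk0 | hs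
  · have h6 : minpoly F T ∣ P₁ - 1 := (hmsq.dvd_pow_iff_dvd hk0).1 h5
    have h7 : aeval T (P₁ - 1) = 0 := by
      obtain ⟨Q, hQ⟩ := h6
      rw [hQ, map_mul, minpoly.aeval, zero_mul]
    rw [← hA0] at h7
    exact sub_eq_zero.1 h7
  · ext x
    exact Subsingleton.elim _ _

/-- An irreducible factor of the characteristic polynomial of a semisimple element of `r`-power order divides
`X ^ r ^ s - 1`. -/
lemma factor_dvd_of_pow_eq_one (T : V →ₗ[F] V) (hT : IsSS T) (N : ℕ) (hTR : T ^ N = 1)
    (g : F[X]) (hgm : g.Monic) (hgi : Irreducible g) (hgd : g ∣ T.charpoly) :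
    g ∣ X ^ N - 1 := by
  classical
  obtain ⟨V₁, _, _, _, T₁, Φ, hΦ⟩ := exists_split_of_dvd _ V T hT g hgi hgm hgd rfl
  have : Fact (Irreducible g) := ⟨hgi⟩
  have h1 := aeval_split T T₁ Φ hΦ (X ^ N - 1) (Φ.symm (1, 0))
  have h2 : aeval T (X ^ N - 1 : F[X]) = 0 := by
    simp [hTR]
  rw [h2] at h1
  simp only [LinearMap.zero_apply, map_zero, LinearEquiv.apply_symm_apply, mul_one] at h1
  have h3 := congrArg Prod.fst h1
  simp only [Prod.fst_zero] at h3
  exact AdjoinRoot.mk_eq_zero.1 h3.symm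

/-- Divisibility of exponents from two divisibilities of polynomials. -/
lemma prime_dvd_of_factor (r s M : ℕ) (hr : r.Prime) (g : F[X]) (hgm : g.Monic) (hgi : Irreducible g)
    (hg1 : g ≠ X - C 1) (h1 : g ∣ X ^ (r ^ s) - 1) (h2 : g ∣ X ^ M - 1) : r ∣ M := by
  classical
  by_contra hn
  have : Fact (Irreducible g) := ⟨hgi⟩
  have hroot : ∀ N : ℕ, g ∣ X ^ N - 1 → (AdjoinRoot.root g) ^ N = 1 := by
    intro N hN
    have h3 := AdjoinRoot.mk_eq_zero.2 hN
    simpa [sub_eq_zero] using h3
  have h3 := hroot _ h1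
  have h4 := hroot _ h2
  have hcop : Nat.Coprime (r ^ s) M := Nat.Coprime.pow_left s ((Nat.Prime.coprime_iff_not_dvd hr).2 hn)
  have h5 : (AdjoinRoot.root g) ^ (Nat.gcd (r ^ s) M) = 1 := pow_gcd_eq_one.2 ⟨h3, h4⟩
  rw [hcop.gcd_eq_one, pow_one] at h5
  have h6 : AdjoinRoot.mk g (X - C 1) = 0 := by
    simp [h5]
  have h7 : g ∣ X - C 1 := AdjoinRoot.mk_eq_zero.1 h6
  exact hg1 (eq_of_monic_of_associated hgm (monic_X_sub_C 1) (hgi.associated_of_dvd (irreducible_X_sub_C 1) h7))

/-- A monic polynomial of degree at most one is squarefree. -/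
lemma squarefree_of_natDegree_le_one {h : F[X]} (hm : h.Monic) (hd : h.natDegree ≤ 1) : Squarefree h := by
  by_cases h0 : h.natDegree = 0
  · have h2 : h = 1 := hm.natDegree_eq_zero.1 h0
    rw [h2]
    exact squarefree_one
  · have h1 : h.natDegree = 1 := by omega
    have h3 : Irreducible h := Polynomial.irreducible_of_degree_eq_one (by
      rw [degree_eq_natDegree hm.ne_zero, h1]
      rfl)
    exact h3.squarefree

/-- An irreducible polynomial of degree bigger than that of a nonzero `h` is prime to it. -/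
lemma isRelPrime_of_natDegree_lt {g h : F[X]} (hg : Irreducible g) (h0 : h ≠ 0) (hd : h.natDegree < g.natDegree) :
    IsRelPrime g h := by
  rw [hg.isRelPrime_iff_not_dvd]
  intro hdvd
  have := natDegree_le_of_dvd hdvd h0
  omega

end Cfsg.Agent.Lib.SemiSimple.Sqfree
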